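import Cfsg.Agent.Lib.Helper11.Fi24e1.Top

set_option autoImplicit false
set_option maxRecDepth 100000

namespace Cfsg.Agent.Lib.Helper11.Fi24e1

set_option maxHeartbeats 0
theorem c0 : allR (guardB 440 (cblk fc nc cc 179456 14080 3121748550315992231381597229793166305748598142664971150859156959625371738819765620120306103063491971159826931121406622895447975679288285306290176 gens)) 6 0 = true := by decide +kernel
theorem c1 : allR (guardB 440 (cblk fc nc cc 179456 14080 3121748550315992231381597229793166305748598142664971150859156959625371738819765620120306103063491971159826931121406622895447975679288285306290176 gens)) 6 64 = true := by decide +kernel
theorem c2 : allR (guardB 440 (cblk fc nc cc 179456 14080 3121748550315992231381597229793166305748598142664971150859156959625371738819765620120306103063491971159826931121406622895447975679288285306290176 gens)) 6 128 = true := by decide +kernel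
theorem c3 : allR (guardB 440 (cblk fc nc cc 179456 14080 3121748550315992231381597229793166305748598142664971150859156959625371738819765620120306103063491971159826931121406622895447975679288285306290176 gens)) 6 192 = true := by decide +kernel
theorem c4 : allR (guardB 440 (cblk fc nc cc 179456 14080 3121748550315992231381597229793166305748598142664971150859156959625371738819765620120306103063491971159826931121406622895447975679288285306290176 gens)) 6 256 = true := by decide +kernel
theorem c5 : allR (guardB 440 (cblk fc nc cc 179456 14080 3121748550315992231381597229793166305748598142664971150859156959625371738819765620120306103063491971159826931121406622895447975679288285306290176 gens)) 6 320 = true := by decide +kernel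
theorem c6 : allR (guardB 440 (cblk fc nc cc 179456 14080 3121748550315992231381597229793166305748598142664971150859156959625371738819765620120306103063491971159826931121406622895447975679288285306290176 gens)) 6 384 = true := by decide +kernel
theorem c7 : allR (guardB 440 (cblk fc nc cc 179456 14080 3121748550315992231381597229793166305748598142664971150859156959625371738819765620120306103063491971159826931121406622895447975679288285306290176 gens)) 6 448 = true := by decide +kernel

end Cfsg.Agent.Lib.Helper11.Fi24e1
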