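import Cfsg.Agent.Lib.Helper11.Fi24e1.K0
import Cfsg.Agent.Lib.Helper11.Fi24e1.K1
import Cfsg.Agent.Lib.Helper11.Fi24e1.K2

set_option autoImplicit false
set_option maxRecDepth 100000

namespace Cfsg.Agent.Lib.Helper11.Fi24e1

theorem chkAll : ∀ j < 701, blk fc sc rt.get INV isH j = true :=
  guardB_spec (D := 10) (allR_join (allR_join (allR_join (allR_join b0 b1 (by norm_num)) (allR_join b2 b3 (by norm_num)) (by norm_num)) (allR_join (allR_join b4 b5 (by norm_num)) (allR_join b6 b7 (by norm_num)) (by norm_num)) (by norm_num)) (allR_join (allR_join (allR_join b8 b9 (by norm_num)) (allR_join b10 b11 (by norm_num)) (by norm_num)) (allR_join (allR_join b12 b13 (by norm_num)) (allR_join b14 b15 (by norm_num)) (by norm_num)) (by norm_num)) (by norm_num)) (by norm_num)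

theorem clAll : ∀ jb < 440, cblk fc nc cc (256 * 701) 14080 3121748550315992231381597229793166305748598142664971150859156959625371738819765620120306103063491971159826931121406622895447975679288285306290176 gens jb = true :=
  guardB_spec (D := 9) (allR_join (allR_join (allR_join c0 c1 (by norm_num)) (allR_join c2 c3 (by norm_num)) (by norm_num)) (allR_join (allR_join c4 c5 (by norm_num)) (allR_join c6 c7 (by norm_num)) (by norm_num)) (by norm_num)) (by norm_num)

theorem hN0 : getN nc 0 = 0 := by decide +kernel


end Cfsg.Agent.Lib.Helper11.Fi24e1
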