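import Cfsg.Agent.Lib.Helper11.Fi24e1.All
import Cfsg.Agent.Lib.Helper11.Rel
import Cfsg.Prelude.Def_Spor_Fi24
import Cfsg.Agent.Lib.Helper11.Rel2
import Cfsg.Agent.Lib.Helper11.Fi24Spider

set_option autoImplicit false
set_option maxRecDepth 100000

namespace Cfsg.Agent.Lib.Helper11.Fi24e1

open Cfsg.Spor Cfsg.Spor.Fi24

def LTF : List (FreeGroup Gen) := [1, l, a, b, c, d, e, f, g, h, i]
def code : Gen → ℕ
  | .l => 1 | .k => 0 | .a => 2 | .b => 3 | .c => 4 | .d => 5 | .e => 6 | .f => 7 | .g => 8 | .j => 0 | .h => 9 | .i => 10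
def nodes : List Gen := [.l, .a, .b, .c, .d, .e, .f, .g, .h, .i]
def extraE : List WExp := [.mul (.l 1) (.inv (.pow (.mul (.mul (.mul (.mul (.mul (.mul (.l 2) (.l 3)) (.l 4)) (.l 5)) (.l 6)) (.l 7)) (.l 9)) 9)),
  .pow (.mul (.mul (.mul (.mul (.mul (.mul (.mul (.mul (.l 5) (.l 4)) (.l 3)) (.l 5)) (.l 6)) (.l 7)) (.l 5)) (.l 9)) (.l 10)) 10]
def hE : List (WExp × ℕ) := []

theorem rtok : rt.ok (baseWords edges code nodes INV 10 extraE hE) = true := by decide +kernel

theorem invol (x : Gen) (hx : x ∈ coxNodes edges) :
    (PresentedGroup.mk (coxRelators edges ∪ {r | r ∈ extra})) (FreeGroup.of x) =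
      ((PresentedGroup.mk (coxRelators edges ∪ {r | r ∈ extra})) (FreeGroup.of x))⁻¹ := by
  have h := cox_rel edges extra x x hx hx
  have h1 : coxLabel edges x x = 1 := by simp [coxLabel]
  rw [h1, pow_one] at h
  exact eq_inv_of_mul_eq_one_left h

theorem hone : (PresentedGroup.mk (coxRelators edges ∪ {r | r ∈ extra})) 1 =
    ((PresentedGroup.mk (coxRelators edges ∪ {r | r ∈ extra})) 1)⁻¹ := by simp

theorem hii (x : FreeGroup Gen) : (PresentedGroup.mk (coxRelators edges ∪ {r | r ∈ extra})) x =
    ((PresentedGroup.mk (coxRelators edges ∪ {r | r ∈ extra})) x⁻¹)⁻¹ := by rw [map_inv, inv_inv]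

theorem hinv32 : ∀ l < 32, (PresentedGroup.mk (coxRelators edges ∪ {r | r ∈ extra}))
        (LTF.getD (invL INV l) 1) =
      ((PresentedGroup.mk (coxRelators edges ∪ {r | r ∈ extra})) (LTF.getD l 1))⁻¹ := by
  intro l hl
  interval_cases l
  · exact hone
  · exact invol _ (by decide)
  · exact invol _ (by decide)
  · exact invol _ (by decide)
  · exact invol _ (by decide)
  · exact invol _ (by decide)
  · exact invol _ (by decide)
  · exact invol _ (by decide)
  · exact invol _ (by decide)
  · exact invol _ (by decide)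
  · exact invol _ (by decide)
  · exact hone
  · exact hone
  · exact hone
  · exact hone
  · exact hone
  · exact hone
  · exact hone
  · exact hone
  · exact hone
  · exact hone
  · exact hone
  · exact hone
  · exact hone
  · exact hone
  · exact hone
  · exact hone
  · exact hone
  · exact hone
  · exact hone
  · exact hone
  · exact hone

theorem upper : ((Subgroup.closure ({b, c, d, e, f, g, h, i, l} : Set (FreeGroup Gen))).map
      (PresentedGroup.mk (coxRelators edges ∪ {r | r ∈ extra}))).relIndex
      ((Subgroup.closure ({a, b, c, d, e, f, g, h, i, l} : Set (FreeGroup Gen))).map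
      (PresentedGroup.mk (coxRelators edges ∪ {r | r ∈ extra}))) ≠ 0 ∧
    ((Subgroup.closure ({b, c, d, e, f, g, h, i, l} : Set (FreeGroup Gen))).map
      (PresentedGroup.mk (coxRelators edges ∪ {r | r ∈ extra}))).relIndex
      ((Subgroup.closure ({a, b, c, d, e, f, g, h, i, l} : Set (FreeGroup Gen))).map
      (PresentedGroup.mk (coxRelators edges ∪ {r | r ∈ extra}))) ≤ 14080 := by
  apply cox_relIndex_le' edges extra _ _ LTF code nodes INV 10 extraE hE rt fc sc nc cc isH gens
    701 440 14080 _ rfl (by decide) (by decide +kernel) hinv32 (by decide) _ _ _ _ _ _ rtok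
    (by norm_num) (by norm_num) hN0 (by decide) chkAll clAll
  · intro x hx
    simp only [nodes, List.mem_cons, List.mem_nil_iff, or_false] at hx
    rcases hx with rfl | rfl | rfl | rfl | rfl | rfl | rfl | rfl | rfl | rfl <;> rfl
  · intro e he
    simp only [extraE, List.mem_cons, List.mem_nil_iff, or_false] at he
    rcases he with rfl | rfl
    · exact extra_rel edges extra _ (List.getElem_mem (l := extra) (n := 0) (by decide))
    · exact Cfsg.Agent.Lib.Helper11.Fi24S.spider
  · intro p hp
    have : hE.map (fun p => LTF.getD p.2 1) = hE.map (fun p => p.1.eval (fun l => LTF.getD l 1)) := rfl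
    exact List.map_inj_left.1 this p hp
  · intro l
    by_cases hl : l < 11
    · interval_cases l
      · exact Subgroup.one_mem _
      · exact Subgroup.subset_closure (by simp [LTF])
      · exact Subgroup.subset_closure (by simp [LTF])
      · exact Subgroup.subset_closure (by simp [LTF])
      · exact Subgroup.subset_closure (by simp [LTF])
      · exact Subgroup.subset_closure (by simp [LTF])
      · exact Subgroup.subset_closure (by simp [LTF])
      · exact Subgroup.subset_closure (by simp [LTF])
      · exact Subgroup.subset_closure (by simp [LTF])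
      · exact Subgroup.subset_closure (by simp [LTF])
      · exact Subgroup.subset_closure (by simp [LTF])
    · rw [List.getD_eq_default _ _ (by simp only [LTF, List.length_cons, List.length_nil]; omega)]
      exact Subgroup.one_mem _
  · intro s hs
    simp only [Set.mem_insert_iff, Set.mem_singleton_iff] at hs
    rcases hs with rfl | rfl | rfl | rfl | rfl | rfl | rfl | rfl | rfl | rfl
    · exact ⟨2, by decide, rfl⟩
    · exact ⟨3, by decide, rfl⟩
    · exact ⟨4, by decide, rfl⟩
    · exact ⟨5, by decide, rfl⟩
    · exact ⟨6, by decide, rfl⟩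
    · exact ⟨7, by decide, rfl⟩
    · exact ⟨8, by decide, rfl⟩
    · exact ⟨9, by decide, rfl⟩
    · exact ⟨10, by decide, rfl⟩
    · exact ⟨1, by decide, rfl⟩
  · intro l hl
    simp only [isH, decide_eq_true_eq, List.mem_cons, List.mem_nil_iff, or_false] at hl
    rcases hl with rfl | rfl | rfl | rfl | rfl | rfl | rfl | rfl | rfl <;>
      exact Subgroup.subset_closure (by simp [LTF])


end Cfsg.Agent.Lib.Helper11.Fi24e1
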